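import Cfsg.Agent.Lib.Helper45.UC.Base

set_option autoImplicit false

namespace Cfsg.Agent.Lib.Helper45.UC

open Matrix

variable {t : ℕ} {d : Fin t → ℕ} {F : Type*} [Field F]

/-- K1 -/
theorem topHom_surjective (hd : ∀ k, 1 ≤ d k) : Function.Surjective (topHom d hd F) := by
  intro X
  refine ⟨fun x => if h : d x.1 = d x.2.1 ∧ (x.2.2 : ℕ) = 0 then
    X ⟨d x.1, Nat.lt_succ_of_le (Finset.le_sup (Finset.mem_univ x.1))⟩ ⟨x.1, rfl⟩
      ⟨x.2.1, h.1.symm⟩ else 0, ?_⟩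
  funext i l k
  obtain ⟨i, hi⟩ := i
  obtain ⟨l, hl⟩ := l
  obtain ⟨k, hk⟩ := k
  change d l = i at hl
  change d k = i at hk
  subst hl
  change (if h : d l = d k ∧ (0 : ℕ) = 0 then
    X ⟨d l, Nat.lt_succ_of_le (Finset.le_sup (Finset.mem_univ l))⟩ ⟨l, rfl⟩
      ⟨k, h.1.symm⟩ else 0) = _
  rw [dif_pos ⟨hk.symm, rfl⟩]

end Cfsg.Agent.Lib.Helper45.UC
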