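import Cfsg.Agent.Lib.Helper45.UC.Base

set_option autoImplicit false

namespace Cfsg.Agent.Lib.Helper45.UC

open Matrix

variable {t : ℕ} {d : Fin t → ℕ} {F : Type*} [Field F]

theorem card_preimage_aux {A B : Type*} [AddCommGroup A] [AddCommGroup B]
    (f : A →+ B) (hf : Function.Surjective f) (S : Set B) :
    Nat.card {a : A // f a ∈ S} = Nat.card S * Nat.card f.ker := by
  rw [← Nat.card_prod]
  apply Nat.card_congr
  exact
    { toFun := fun a => (⟨f a.1, a.2⟩, ⟨a.1 - Function.surjInv hf (f a.1), by
          rw [AddMonoidHom.mem_ker, map_sub, Function.surjInv_eq hf, sub_self]⟩)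
      invFun := fun x => ⟨Function.surjInv hf x.1.1 + x.2.1, by
          rw [map_add, Function.surjInv_eq hf, AddMonoidHom.mem_ker.1 x.2.2, add_zero]
          exact x.1.2⟩
      left_inv := fun a => by
        apply Subtype.ext
        simp
      right_inv := fun x => by
        have h : f (Function.surjInv hf x.1.1 + x.2.1) = x.1.1 := by
          rw [map_add, Function.surjInv_eq hf, AddMonoidHom.mem_ker.1 x.2.2, add_zero]
        apply Prod.ext
        · apply Subtype.ext
          exact h
        · apply Subtype.ext
          simp [h] }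

/-- K2 -/
theorem card_preimage_of_surjective {A B : Type*} [AddCommGroup A] [AddCommGroup B] [Finite A]
    (f : A →+ B) (hf : Function.Surjective f) (S : Set B) :
    Nat.card {a : A // f a ∈ S} * Nat.card B = Nat.card S * Nat.card A := by
  have h1 := card_preimage_aux f hf S
  have h2 := card_preimage_aux f hf Set.univ
  have h3 : Nat.card {a : A // f a ∈ (Set.univ : Set B)} = Nat.card A :=
    Nat.card_congr (Equiv.subtypeUnivEquiv (fun a => Set.mem_univ _))
  have h4 : Nat.card (Set.univ : Set B) = Nat.card B := Nat.card_congr (Equiv.Set.univ B)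
  rw [h1, ← h3, h2, h4]
  ring

end Cfsg.Agent.Lib.Helper45.UC
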