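import Cfsg.Agent.Lib.Helper45.UC.Base

set_option autoImplicit false

namespace Cfsg.Agent.Lib.Helper45.UC

open Matrix

variable {t : ℕ} {d : Fin t → ℕ} {F : Type*} [Field F]

/-- U10 -/
theorem topG_toMat (hd : ∀ k, 1 ≤ d k) (p : PI d → F) (i : ℕ) (l k : Blk d i) :
    topG d hd (toMat d p) i l k =
      p ⟨l.1, k.1, ⟨0, lt_min (hd l.1) (hd k.1)⟩⟩ := by
  have hl := l.2
  have hk := k.2
  simp only [topG, toMat]
  rw [dif_pos (by omega)]
  congr 4
  omega

end Cfsg.Agent.Lib.Helper45.UC
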