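import Cfsg.Agent.Lib.Helper45.UC.Base
import Cfsg.Agent.Lib.Helper45.UC.U10

set_option autoImplicit false

namespace Cfsg.Agent.Lib.Helper45.UC

open Matrix

variable {t : ℕ} {d : Fin t → ℕ} {F : Type*} [Field F]

/-- K3 -/
theorem forall_isUnit_iff (hd : ∀ k, 1 ≤ d k) (p : PI d → F) :
    (∀ i, IsUnit (topG d hd (toMat d p) i)) ↔ ∀ i, IsUnit (topHom d hd F p i) := by
  have h : ∀ i : Fin (Finset.univ.sup d + 1),
      topG d hd (toMat d p) i = topHom d hd F p i := by
    intro i
    funext l k
    exact topG_toMat hd p i l k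
  constructor
  · intro H i
    rw [← h]
    exact H i
  · intro H i
    by_cases hi : i < Finset.univ.sup d + 1
    · have h1 := H ⟨i, hi⟩
      rw [← h] at h1
      exact h1
    · haveI : IsEmpty (Blk d i) := ⟨fun k => hi (by
        have h2 := Finset.le_sup (f := d) (Finset.mem_univ k.1)
        rw [k.2] at h2
        omega)⟩
      exact isUnit_of_subsingleton _

end Cfsg.Agent.Lib.Helper45.UC
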