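import Cfsg.Agent.Lib.Helper45.UC.Base

set_option autoImplicit false

namespace Cfsg.Agent.Lib.Helper45.UC

open Matrix

variable {t : ℕ} {d : Fin t → ℕ} {F : Type*} [Field F]

/-- units as a subtype -/
noncomputable def K4_unitsEquiv (M : Type*) [Monoid M] : {x : M // IsUnit x} ≃ Mˣ where
  toFun x := x.2.unit
  invFun u := ⟨u, u.isUnit⟩
  left_inv _ := Subtype.ext rfl
  right_inv _ := Units.ext rfl

/-- K4 -/
theorem card_units_tuple [Fintype F] :
    Nat.card {X : (i : Fin (Finset.univ.sup d + 1)) → Matrix (Blk d i) (Blk d i) F //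
      ∀ i, IsUnit (X i)} =
    ∏ i ∈ Finset.range (Finset.univ.sup d + 1), ∏ j : Fin (cnt d i),
      (Fintype.card F ^ cnt d i - Fintype.card F ^ (j : ℕ)) := by
  rw [Nat.card_congr (Equiv.subtypePiEquivPi), Nat.card_pi,
    ← Fin.prod_univ_eq_prod_range (fun i => ∏ j : Fin (cnt d i),
      (Fintype.card F ^ cnt d i - Fintype.card F ^ (j : ℕ)))]
  apply Finset.prod_congr rfl
  intro i _
  rw [← Matrix.card_GL_field]
  apply Nat.card_congr
  have e : Blk d i ≃ Fin (cnt d i) := Fintype.equivFinOfCardEq (Fintype.card_subtype _)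
  exact (K4_unitsEquiv _).trans
    (Units.mapEquiv (Matrix.reindexAlgEquiv F F e).toRingEquiv.toMulEquiv).toEquiv

end Cfsg.Agent.Lib.Helper45.UC
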