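import Cfsg.Agent.Lib.Helper45.UC.Base

set_option autoImplicit false

namespace Cfsg.Agent.Lib.Helper45.UC

open Matrix

variable {t : ℕ} {d : Fin t → ℕ} {F : Type*} [Field F]

/-- K5 -/
theorem card_target [Fintype F] :
    Nat.card ((i : Fin (Finset.univ.sup d + 1)) → Matrix (Blk d i) (Blk d i) F) =
      Fintype.card F ^ (∑ i ∈ Finset.range (Finset.univ.sup d + 1), cnt d i ^ 2) := by
  rw [Nat.card_pi, ← Finset.prod_pow_eq_pow_sum,
    ← Fin.prod_univ_eq_prod_range (fun i => Fintype.card F ^ (cnt d i ^ 2))]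
  apply Finset.prod_congr rfl
  intro i _
  have hB : Nat.card (Blk d i) = cnt d i := by
    rw [Nat.card_eq_fintype_card, Fintype.card_subtype]
  change Nat.card (Blk d i → Blk d i → F) = _
  rw [Nat.card_fun, Nat.card_fun, hB, Nat.card_eq_fintype_card, ← pow_mul, sq]

end Cfsg.Agent.Lib.Helper45.UC
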