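import Cfsg.Agent.Lib.Helper45.UC.Base

set_option autoImplicit false

namespace Cfsg.Agent.Lib.Helper45.UC

open Matrix

variable {t : ℕ} {d : Fin t → ℕ} {F : Type*} [Field F]

/-- K6 -/
theorem card_param [Fintype F] :
    Nat.card (PI d → F) = Fintype.card F ^ (∑ l : Fin t, ∑ k : Fin t, min (d l) (d k)) := by
  rw [Nat.card_eq_fintype_card, Fintype.card_fun, Fintype.card_sigma]
  congr 1
  apply Finset.sum_congr rfl
  intro l _
  rw [Fintype.card_sigma]
  simp

end Cfsg.Agent.Lib.Helper45.UC
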