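import Cfsg.Agent.Lib.Helper45.UC.Base

set_option autoImplicit false

namespace Cfsg.Agent.Lib.Helper45.UC

open Matrix

variable {t : ℕ} {d : Fin t → ℕ} {F : Type*} [Field F]

omit [Field F] in
theorem K7_sum_comp (g : ℕ → ℕ) : ∑ k : Fin t, g (d k) =
    ∑ j ∈ Finset.range (Finset.univ.sup d + 1), cnt d j * g j := by
  rw [← Finset.sum_fiberwise_of_maps_to (s := Finset.univ)
    (t := Finset.range (Finset.univ.sup d + 1)) (g := d)
    (fun x _ => Finset.mem_range.2 (Nat.lt_succ_of_le (Finset.le_sup (Finset.mem_univ x))))]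
  apply Finset.sum_congr rfl
  intro j _
  rw [Finset.sum_congr rfl (g := fun _ => g j)
    (fun x hx => by rw [(Finset.mem_filter.1 hx).2])]
  rw [Finset.sum_const, smul_eq_mul]

/-- K7 -/
theorem sum_min_eq (hd : ∀ k, 1 ≤ d k) : ∑ l : Fin t, ∑ k : Fin t, min (d l) (d k) =
    (2 * (∑ i ∈ Finset.range (Finset.univ.sup d + 1), ∑ j ∈ Finset.range (Finset.univ.sup d + 1),
      if i < j then i * cnt d i * cnt d j else 0) +
      ∑ i ∈ Finset.range (Finset.univ.sup d + 1), (i - 1) * cnt d i ^ 2) +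
      ∑ i ∈ Finset.range (Finset.univ.sup d + 1), cnt d i ^ 2 := by
  have h0 : cnt d 0 = 0 := by
    rw [Finset.card_eq_zero, Finset.filter_eq_empty_iff]
    intro k _ hk
    have := hd k
    omega
  generalize hR : Finset.range (Finset.univ.sup d + 1) = R
  have e1 : ∑ l : Fin t, ∑ k : Fin t, min (d l) (d k) =
      ∑ i ∈ R, ∑ j ∈ R, cnt d i * (cnt d j * min i j) := by
    have h1 : ∀ l : Fin t, ∑ k : Fin t, min (d l) (d k) = ∑ j ∈ R, cnt d j * min (d l) j := by
      intro l
      rw [← hR]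
      exact K7_sum_comp (fun j => min (d l) j)
    rw [Finset.sum_congr rfl (fun l _ => h1 l)]
    rw [K7_sum_comp (fun i => ∑ j ∈ R, cnt d j * min i j), hR]
    apply Finset.sum_congr rfl
    intro i _
    rw [Finset.mul_sum]
  have e2 : ∀ i j : ℕ, cnt d i * (cnt d j * min i j) =
      (if i < j then i * cnt d i * cnt d j else 0) + (if j < i then j * cnt d j * cnt d i else 0)
        + (if i = j then i * cnt d i ^ 2 else 0) := by
    intro i j
    rcases lt_trichotomy i j with h | h | h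
    · rw [if_pos h, if_neg (by omega), if_neg (by omega), min_eq_left h.le]
      ring
    · subst h
      rw [if_neg (lt_irrefl _), if_pos rfl, min_self]
      ring
    · rw [if_neg (by omega), if_pos h, if_neg (by omega), min_eq_right h.le]
      ring
  rw [e1, Finset.sum_congr rfl (fun i _ => Finset.sum_congr rfl (fun j _ => e2 i j))]
  simp only [Finset.sum_add_distrib]
  have e3 : ∑ i ∈ R, ∑ j ∈ R, (if j < i then j * cnt d j * cnt d i else 0) =
      ∑ i ∈ R, ∑ j ∈ R, (if i < j then i * cnt d i * cnt d j else 0) := Finset.sum_comm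
  have e4 : ∑ i ∈ R, ∑ j ∈ R, (if i = j then i * cnt d i ^ 2 else 0) =
      ∑ i ∈ R, (i - 1) * cnt d i ^ 2 + ∑ i ∈ R, cnt d i ^ 2 := by
    rw [← Finset.sum_add_distrib]
    apply Finset.sum_congr rfl
    intro i hi
    rw [Finset.sum_ite_eq, if_pos hi]
    rcases Nat.eq_zero_or_pos i with rfl | hpos
    · rw [h0]
      simp
    · obtain ⟨m, rfl⟩ : ∃ m, i = m + 1 := ⟨i - 1, by omega⟩
      rw [Nat.add_sub_cancel]
      ring
  rw [e3, e4]
  ring

end Cfsg.Agent.Lib.Helper45.UC
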