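import Cfsg.Agent.Lib.Helper45.UC.Base

set_option autoImplicit false

namespace Cfsg.Agent.Lib.Helper45.UC

open Matrix

variable {t : ℕ} {d : Fin t → ℕ} {F : Type*} [Field F]

/-- J1 -/
theorem jordan_apply (x y : Ix d) : Cfsg.jordanTypeMatrix d F x y =
    if x.1 = y.1 ∧ ((x.2 : ℕ) = y.2 ∨ (x.2 : ℕ) = (y.2 : ℕ) + 1) then 1 else 0 := by
  obtain ⟨l, b⟩ := x
  obtain ⟨k, s⟩ := y
  unfold Cfsg.jordanTypeMatrix
  rw [Matrix.blockDiagonal'_apply]
  by_cases h : l = k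
  · subst h
    simp only [dif_pos, cast_eq, true_and, Cfsg.jordanBlock, Matrix.of_apply]
    by_cases h1 : (b : ℕ) = s
    · simp [h1]
    · by_cases h2 : (b : ℕ) = (s : ℕ) + 1
      · simp [h2]
      · simp [h1, h2]
  · simp [h]

end Cfsg.Agent.Lib.Helper45.UC
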