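import Cfsg.Agent.Lib.Helper45.UC.Base
import Cfsg.Agent.Lib.Helper45.UC.J1

set_option autoImplicit false

namespace Cfsg.Agent.Lib.Helper45.UC

open Matrix

variable {t : ℕ} {d : Fin t → ℕ} {F : Type*} [Field F]

/-- J2a -/
theorem mul_jordan_apply (g : Matrix (Ix d) (Ix d) F) (x y : Ix d) :
    (g * Cfsg.jordanTypeMatrix d F) x y =
      g x y + (if h : (y.2 : ℕ) + 1 < d y.1 then g x ⟨y.1, ⟨(y.2 : ℕ) + 1, h⟩⟩ else 0) := by
  classical
  rw [Matrix.mul_apply]
  have hsplit : ∀ z : Ix d, g x z * Cfsg.jordanTypeMatrix d F z y =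
      (if z = y then g x y else 0) +
      (if h : (y.2 : ℕ) + 1 < d y.1 then
        (if z = ⟨y.1, ⟨(y.2 : ℕ) + 1, h⟩⟩ then g x ⟨y.1, ⟨(y.2 : ℕ) + 1, h⟩⟩ else 0) else 0) := by
    intro z
    rw [jordan_apply]
    obtain ⟨m, c⟩ := z
    obtain ⟨k, s⟩ := y
    by_cases hmk : m = k
    · subst hmk
      by_cases h1 : (c : ℕ) = s
      · have hc : c = s := Fin.ext h1
        subst hc
        have hne : ∀ h : (c : ℕ) + 1 < d m, (⟨m, c⟩ : Ix d) ≠ ⟨m, ⟨(c : ℕ) + 1, h⟩⟩ := by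
          intro h he
          have := congrArg (fun z : Ix d => (z.2 : ℕ)) he
          simp at this
        by_cases h : (c : ℕ) + 1 < d m
        · simp [h, hne h]
        · simp [h]
      · by_cases h2 : (c : ℕ) = (s : ℕ) + 1
        · have h : (s : ℕ) + 1 < d m := h2 ▸ c.2
          have hc : c = ⟨(s : ℕ) + 1, h⟩ := Fin.ext h2
          subst hc
          have hne : (⟨m, ⟨(s : ℕ) + 1, h⟩⟩ : Ix d) ≠ ⟨m, s⟩ := by
            intro he
            have := congrArg (fun z : Ix d => (z.2 : ℕ)) he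
            simp at this
          simp [h, hne]
        · have hne1 : (⟨m, c⟩ : Ix d) ≠ ⟨m, s⟩ := by
            intro he
            exact h1 (congrArg (fun z : Ix d => (z.2 : ℕ)) he)
          have hne2 : ∀ h : (s : ℕ) + 1 < d m, (⟨m, c⟩ : Ix d) ≠ ⟨m, ⟨(s : ℕ) + 1, h⟩⟩ := by
            intro h he
            exact h2 (congrArg (fun z : Ix d => (z.2 : ℕ)) he)
          by_cases h : (s : ℕ) + 1 < d m
          · simp [h1, h2, hne1, hne2 h, h]
          · simp [h1, h2, hne1, h]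
    · have hne1 : (⟨m, c⟩ : Ix d) ≠ ⟨k, s⟩ := by
        intro he
        exact hmk (congrArg (fun z : Ix d => z.1) he)
      have hne2 : ∀ h : (s : ℕ) + 1 < d k, (⟨m, c⟩ : Ix d) ≠ ⟨k, ⟨(s : ℕ) + 1, h⟩⟩ := by
        intro h he
        exact hmk (congrArg (fun z : Ix d => z.1) he)
      by_cases h : (s : ℕ) + 1 < d k
      · simp [hmk, hne1, hne2 h, h]
      · simp [hmk, hne1, h]
  rw [Finset.sum_congr rfl (fun z _ => hsplit z), Finset.sum_add_distrib]
  congr 1
  · simp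
  · by_cases h : (y.2 : ℕ) + 1 < d y.1
    · simp [h]
    · simp [h]

end Cfsg.Agent.Lib.Helper45.UC
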