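import Cfsg.Agent.Lib.Helper45.UC.Base
import Cfsg.Agent.Lib.Helper45.UC.J1

set_option autoImplicit false

namespace Cfsg.Agent.Lib.Helper45.UC

open Matrix

variable {t : ℕ} {d : Fin t → ℕ} {F : Type*} [Field F]

/-- J2b -/
theorem jordan_mul_apply (g : Matrix (Ix d) (Ix d) F) (x y : Ix d) :
    (Cfsg.jordanTypeMatrix d F * g) x y =
      g x y + (if h : 0 < (x.2 : ℕ) then
        g ⟨x.1, ⟨(x.2 : ℕ) - 1, lt_of_le_of_lt (Nat.sub_le _ _) x.2.2⟩⟩ y else 0) := by
  classical
  rw [Matrix.mul_apply]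
  have hsplit : ∀ z : Ix d, Cfsg.jordanTypeMatrix d F x z * g z y =
      (if z = x then g x y else 0) +
      (if h : 0 < (x.2 : ℕ) then
        (if z = ⟨x.1, ⟨(x.2 : ℕ) - 1, lt_of_le_of_lt (Nat.sub_le _ _) x.2.2⟩⟩ then
          g ⟨x.1, ⟨(x.2 : ℕ) - 1, lt_of_le_of_lt (Nat.sub_le _ _) x.2.2⟩⟩ y else 0) else 0) := by
    intro z
    rw [jordan_apply]
    obtain ⟨m, c⟩ := z
    obtain ⟨l, b⟩ := x
    by_cases hmk : l = m
    · subst hmk
      by_cases h1 : (b : ℕ) = c
      · have hc : b = c := Fin.ext h1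
        subst hc
        have hne : ∀ h : 0 < (b : ℕ), (⟨l, b⟩ : Ix d) ≠
            ⟨l, ⟨(b : ℕ) - 1, lt_of_le_of_lt (Nat.sub_le _ _) b.2⟩⟩ := by
          intro h he
          have := congrArg (fun z : Ix d => (z.2 : ℕ)) he
          simp at this
          omega
        by_cases h : 0 < (b : ℕ)
        · simp [h, hne h]
        · simp [h]
      · by_cases h2 : (b : ℕ) = (c : ℕ) + 1
        · have h : 0 < (b : ℕ) := by omega
          have hc : c = ⟨(b : ℕ) - 1, lt_of_le_of_lt (Nat.sub_le _ _) b.2⟩ := Fin.ext (by simp; omega)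
          subst hc
          have hne : (⟨l, ⟨(b : ℕ) - 1, lt_of_le_of_lt (Nat.sub_le _ _) b.2⟩⟩ : Ix d) ≠ ⟨l, b⟩ := by
            intro he
            have := congrArg (fun z : Ix d => (z.2 : ℕ)) he
            simp at this
            omega
          rw [if_pos ⟨rfl, Or.inr h2⟩]
          simp [h, hne]
        · have hne1 : (⟨l, c⟩ : Ix d) ≠ ⟨l, b⟩ := by
            intro he
            exact h1 (congrArg (fun z : Ix d => (z.2 : ℕ)) he).symm
          have hne2 : ∀ _h : 0 < (b : ℕ), (⟨l, c⟩ : Ix d) ≠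
              ⟨l, ⟨(b : ℕ) - 1, lt_of_le_of_lt (Nat.sub_le _ _) b.2⟩⟩ := by
            intro h he
            have := congrArg (fun z : Ix d => (z.2 : ℕ)) he
            simp at this
            omega
          by_cases h : 0 < (b : ℕ)
          · simp [h1, h2, hne1, hne2 h, h]
          · simp [h1, h2, hne1, h]
    · have hne1 : (⟨m, c⟩ : Ix d) ≠ ⟨l, b⟩ := by
        intro he
        exact hmk (congrArg (fun z : Ix d => z.1) he).symm
      have hne2 : (⟨m, c⟩ : Ix d) ≠
          ⟨l, ⟨(b : ℕ) - 1, lt_of_le_of_lt (Nat.sub_le _ _) b.2⟩⟩ := by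
        intro he
        exact hmk (congrArg (fun z : Ix d => z.1) he).symm
      by_cases h : 0 < (b : ℕ)
      · simp [hmk, hne1, hne2, h]
      · simp [hmk, hne1, h]
  rw [Finset.sum_congr rfl (fun z _ => hsplit z), Finset.sum_add_distrib]
  congr 1
  · simp
  · by_cases h : 0 < (x.2 : ℕ)
    · simp [h]
    · simp [h]

end Cfsg.Agent.Lib.Helper45.UC
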