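import Cfsg.Agent.Lib.Helper45.UC.Base
import Cfsg.Agent.Lib.Helper45.UC.J2a
import Cfsg.Agent.Lib.Helper45.UC.J2b

set_option autoImplicit false

namespace Cfsg.Agent.Lib.Helper45.UC

open Matrix

variable {t : ℕ} {d : Fin t → ℕ} {F : Type*} [Field F]

/-- J3 -/
theorem comm_iff (g : Matrix (Ix d) (Ix d) F) : Comm d g ↔ ∀ x y : Ix d,
    (if h : (y.2 : ℕ) + 1 < d y.1 then g x ⟨y.1, ⟨(y.2 : ℕ) + 1, h⟩⟩ else 0) =
      (if h : 0 < (x.2 : ℕ) then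
        g ⟨x.1, ⟨(x.2 : ℕ) - 1, lt_of_le_of_lt (Nat.sub_le _ _) x.2.2⟩⟩ y else 0) := by
  unfold Comm
  rw [← Matrix.ext_iff]
  refine forall₂_congr (fun x y => ?_)
  rw [mul_jordan_apply, jordan_mul_apply, add_right_inj]

end Cfsg.Agent.Lib.Helper45.UC
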