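import Cfsg.Agent.Lib.Helper45.UC.Base
import Cfsg.Agent.Lib.Helper45.UC.J3

set_option autoImplicit false

namespace Cfsg.Agent.Lib.Helper45.UC

open Matrix

variable {t : ℕ} {d : Fin t → ℕ} {F : Type*} [Field F]

/-- U1 -/
theorem toMat_comm (p : PI d → F) : Comm d (toMat d p) := by
  rw [comm_iff]
  rintro ⟨l, b, hb⟩ ⟨k, s, hs⟩
  simp only [toMat]
  by_cases h1 : s + 1 < d k
  · rw [dif_pos h1]
    by_cases h2 : 0 < b
    · rw [dif_pos h2]
      by_cases h3 : s + 1 + (d l - d k) ≤ b
      · rw [dif_pos h3, dif_pos (by omega)]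
        congr 3
        apply Fin.ext
        simp only
        omega
      · rw [dif_neg h3, dif_neg (by omega)]
    · rw [dif_neg h2, dif_neg (by omega)]
  · rw [dif_neg h1]
    by_cases h2 : 0 < b
    · rw [dif_pos h2, dif_neg (by omega)]
    · rw [dif_neg h2]

end Cfsg.Agent.Lib.Helper45.UC
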