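import Cfsg.Agent.Lib.Helper45.UC.Base
import Cfsg.Agent.Lib.Helper45.UC.J3

set_option autoImplicit false
set_option linter.unusedVariables false

namespace Cfsg.Agent.Lib.Helper45.UC

open Matrix

variable {t : ℕ} {d : Fin t → ℕ} {F : Type*} [Field F]

theorem U2a_aux {g : Matrix (Ix d) (Ix d) F} (hg : Comm d g) (hd : ∀ k, 1 ≤ d k) (k l : Fin t) :
    ∀ (s : ℕ) (hs : s < d k) (b : ℕ) (hb : b < d l),
      g ⟨l, ⟨b, hb⟩⟩ ⟨k, ⟨s, hs⟩⟩ = if h : s ≤ b then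
        g ⟨l, ⟨b - s, lt_of_le_of_lt (Nat.sub_le _ _) hb⟩⟩ ⟨k, ⟨0, hd k⟩⟩ else 0 := by
  intro s
  induction s with
  | zero =>
    intro hs b hb
    rw [dif_pos (Nat.zero_le _)]
    rfl
  | succ s ih =>
    intro hs b hb
    have h1 := (comm_iff g).1 hg ⟨l, ⟨b, hb⟩⟩ ⟨k, ⟨s, by omega⟩⟩
    simp only at h1
    rw [dif_pos hs] at h1
    rw [h1]
    by_cases h2 : 0 < b
    · rw [dif_pos h2, ih (by omega) (b - 1) (by omega)]
      by_cases h3 : s ≤ b - 1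
      · rw [dif_pos h3, dif_pos (by omega)]
        congr 3
        omega
      · rw [dif_neg h3, dif_neg (by omega)]
    · rw [dif_neg h2, dif_neg (by omega)]

/-- U2a -/
theorem comm_shift {g : Matrix (Ix d) (Ix d) F} (hg : Comm d g) (hd : ∀ k, 1 ≤ d k) (x y : Ix d) :
    g x y = if h : (y.2 : ℕ) ≤ (x.2 : ℕ) then
      g ⟨x.1, ⟨(x.2 : ℕ) - (y.2 : ℕ), lt_of_le_of_lt (Nat.sub_le _ _) x.2.2⟩⟩ ⟨y.1, ⟨0, hd y.1⟩⟩
      else 0 := by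
  obtain ⟨l, b, hb⟩ := x
  obtain ⟨k, s, hs⟩ := y
  exact U2a_aux hg hd k l s hs b hb

end Cfsg.Agent.Lib.Helper45.UC
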