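import Cfsg.Agent.Lib.Helper45.UC.Base
import Cfsg.Agent.Lib.Helper45.UC.U2a

set_option autoImplicit false

namespace Cfsg.Agent.Lib.Helper45.UC

open Matrix

variable {t : ℕ} {d : Fin t → ℕ} {F : Type*} [Field F]

/-- U2b -/
theorem comm_zero {g : Matrix (Ix d) (Ix d) F} (hg : Comm d g) (hd : ∀ k, 1 ≤ d k) (x : Ix d)
    (k : Fin t) (h : (x.2 : ℕ) + d k < d x.1) : g x ⟨k, ⟨0, hd k⟩⟩ = 0 := by
  obtain ⟨l, j, hj⟩ := x
  simp only at h
  have hk := hd k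
  have h1 := (comm_iff g).1 hg ⟨l, ⟨j + d k, h⟩⟩ ⟨k, ⟨d k - 1, by omega⟩⟩
  simp only at h1
  rw [dif_neg (by omega), dif_pos (by omega)] at h1
  rw [comm_shift hg hd] at h1
  simp only at h1
  rw [dif_pos (by omega)] at h1
  rw [h1]
  congr 3
  omega

end Cfsg.Agent.Lib.Helper45.UC
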