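import Cfsg.Agent.Lib.Helper45.UC.Base
import Cfsg.Agent.Lib.Helper45.UC.U2b

set_option autoImplicit false

namespace Cfsg.Agent.Lib.Helper45.UC

open Matrix

variable {t : ℕ} {d : Fin t → ℕ} {F : Type*} [Field F]

/-- U2 -/
theorem exists_param (hd : ∀ k, 1 ≤ d k) {g : Matrix (Ix d) (Ix d) F} (hg : Comm d g) :
    ∃ p : PI d → F, toMat d p = g := by
  refine ⟨fun q => g ⟨q.1, ⟨(q.2.2 : ℕ) + (d q.1 - d q.2.1), by
    have := q.2.2.2
    omega⟩⟩ ⟨q.2.1, ⟨0, hd q.2.1⟩⟩, ?_⟩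
  ext ⟨l, b, hb⟩ ⟨k, s, hs⟩
  rw [comm_shift hg hd ⟨l, b, hb⟩ ⟨k, s, hs⟩]
  simp only [toMat]
  by_cases h1 : s + (d l - d k) ≤ b
  · rw [dif_pos h1, dif_pos (by omega)]
    congr 3
    omega
  · rw [dif_neg h1]
    by_cases h2 : s ≤ b
    · rw [dif_pos h2]
      symm
      apply comm_zero hg hd
      simp only
      omega
    · rw [dif_neg h2]

end Cfsg.Agent.Lib.Helper45.UC
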