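import Cfsg.Agent.Lib.Helper45.UC.Base

set_option autoImplicit false

namespace Cfsg.Agent.Lib.Helper45.UC

open Matrix

variable {t : ℕ} {d : Fin t → ℕ} {F : Type*} [Field F]

theorem U3_aux (hd : ∀ k, 1 ≤ d k) (p : PI d → F) (l k : Fin t) (j : ℕ)
    (hj : j < min (d l) (d k)) :
    p ⟨l, k, ⟨j, hj⟩⟩ = toMat d p ⟨l, ⟨j + (d l - d k), by omega⟩⟩ ⟨k, ⟨0, hd k⟩⟩ := by
  simp only [toMat]
  rw [dif_pos (by omega)]
  congr 4
  omega

/-- U3 -/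
theorem toMat_injective (hd : ∀ k, 1 ≤ d k) :
    Function.Injective (toMat d : (PI d → F) → Matrix (Ix d) (Ix d) F) := by
  intro p p' h
  funext ⟨l, k, j, hj⟩
  rw [U3_aux hd p, U3_aux hd p', h]

end Cfsg.Agent.Lib.Helper45.UC
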