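import Cfsg.Agent.Lib.Helper45.UC.Base
import Cfsg.Agent.Lib.Helper45.UC.U2b

set_option autoImplicit false

namespace Cfsg.Agent.Lib.Helper45.UC

open Matrix

variable {t : ℕ} {d : Fin t → ℕ} {F : Type*} [Field F]

/-- U4 -/
theorem topG_mul (hd : ∀ k, 1 ≤ d k) {g h : Matrix (Ix d) (Ix d) F} (hg : Comm d g)
    (hh : Comm d h) (i : ℕ) : topG d hd (g * h) i = topG d hd g i * topG d hd h i := by
  ext l k
  rw [Matrix.mul_apply]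
  unfold topG
  rw [Matrix.mul_apply, Fintype.sum_sigma]
  have h1 : ∀ m : Fin t, ∑ b : Fin (d m), g ⟨l.1, ⟨0, hd l.1⟩⟩ ⟨m, b⟩ * h ⟨m, b⟩ ⟨k.1, ⟨0, hd k.1⟩⟩ =
      g ⟨l.1, ⟨0, hd l.1⟩⟩ ⟨m, ⟨0, hd m⟩⟩ * h ⟨m, ⟨0, hd m⟩⟩ ⟨k.1, ⟨0, hd k.1⟩⟩ := by
    intro m
    apply Finset.sum_eq_single
    · intro b _ hb
      rw [comm_shift hg hd, dif_neg, zero_mul]
      intro h0
      apply hb
      apply Fin.ext
      simpa using h0
    · intro h; exact absurd (Finset.mem_univ _) h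
  simp_rw [h1]
  rw [← Finset.sum_subtype (Finset.univ.filter (fun m : Fin t => d m = i)) (by simp)
    (fun m => g ⟨l.1, ⟨0, hd l.1⟩⟩ ⟨m, ⟨0, hd m⟩⟩ * h ⟨m, ⟨0, hd m⟩⟩ ⟨k.1, ⟨0, hd k.1⟩⟩)]
  rw [Finset.sum_filter]
  apply Finset.sum_congr rfl
  intro m _
  split_ifs with hm
  · rfl
  · rcases lt_or_gt_of_ne hm with h' | h'
    · rw [comm_zero hg hd ⟨l.1, ⟨0, hd l.1⟩⟩ m (by simp only [zero_add]; rw [l.2]; exact h'),
        zero_mul]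
    · rw [comm_zero hh hd ⟨m, ⟨0, hd m⟩⟩ k.1 (by simp only [zero_add]; rw [k.2]; exact h'),
        mul_zero]

end Cfsg.Agent.Lib.Helper45.UC
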