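import Cfsg.Agent.Lib.Helper45.UC.Base

set_option autoImplicit false

namespace Cfsg.Agent.Lib.Helper45.UC

open Matrix

variable {t : ℕ} {d : Fin t → ℕ} {F : Type*} [Field F]

/-- U5 -/
theorem topG_one (hd : ∀ k, 1 ≤ d k) (i : ℕ) :
    topG d hd (1 : Matrix (Ix d) (Ix d) F) i = 1 := by
  ext l k
  unfold topG
  by_cases hlk : l = k
  · subst hlk
    rw [Matrix.one_apply_eq, Matrix.one_apply_eq]
  · rw [Matrix.one_apply_ne hlk, Matrix.one_apply_ne]
    intro h
    apply hlk
    exact Subtype.ext (congrArg Sigma.fst h)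

end Cfsg.Agent.Lib.Helper45.UC
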