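import Cfsg.Agent.Lib.Helper45.UC.Base
import Cfsg.Agent.Lib.Helper45.UC.U10

set_option autoImplicit false

namespace Cfsg.Agent.Lib.Helper45.UC

open Matrix

variable {t : ℕ} {d : Fin t → ℕ} {F : Type*} [Field F]

/-- U6 -/
theorem exists_section (hd : ∀ k, 1 ≤ d k) (X : (i : ℕ) → Matrix (Blk d i) (Blk d i) F) :
    ∃ p : PI d → F, ∀ i, topG d hd (toMat d p) i = X i := by
  refine ⟨fun z => if h : d z.1 = d z.2.1 ∧ (z.2.2 : ℕ) = 0 then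
    X (d z.1) ⟨z.1, rfl⟩ ⟨z.2.1, h.1.symm⟩ else 0, ?_⟩
  intro i
  ext l k
  rw [topG_toMat]
  obtain ⟨l, rfl⟩ := l
  obtain ⟨k, hk⟩ := k
  rw [dif_pos ⟨hk.symm, rfl⟩]

end Cfsg.Agent.Lib.Helper45.UC
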