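import Cfsg.Agent.Lib.Helper45.UC.Base

set_option autoImplicit false

namespace Cfsg.Agent.Lib.Helper45.UC

open Matrix

variable {t : ℕ} {d : Fin t → ℕ} {F : Type*} [Field F]

theorem NIL_pow {ι : Type*} [Fintype ι] [DecidableEq ι] {R : Type*} [CommRing R]
    (n : Matrix ι ι R) (w : ι → ℕ) (h : ∀ x y, n x y ≠ 0 → w y < w x) (m : ℕ) :
    ∀ x y, (n ^ m) x y ≠ 0 → w y + m ≤ w x := by
  induction m with
  | zero =>
    intro x y hxy
    rw [pow_zero] at hxy
    by_cases hxy' : x = y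
    · rw [hxy']; exact le_rfl
    · exact absurd (Matrix.one_apply_ne hxy') hxy
  | succ m ih =>
    intro x y hxy
    rw [pow_succ, Matrix.mul_apply] at hxy
    obtain ⟨z, -, hz⟩ := Finset.exists_ne_zero_of_sum_ne_zero hxy
    have h1 : (n ^ m) x z ≠ 0 := left_ne_zero_of_mul hz
    have h2 : n z y ≠ 0 := right_ne_zero_of_mul hz
    have := ih x z h1
    have := h z y h2
    omega

/-- NIL -/
theorem isNilpotent_of_weight {ι : Type*} [Fintype ι] [DecidableEq ι] {R : Type*} [CommRing R]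
    (n : Matrix ι ι R) (w : ι → ℕ) (h : ∀ x y, n x y ≠ 0 → w y < w x) : IsNilpotent n := by
  refine ⟨Finset.univ.sup w + 1, ?_⟩
  ext x y
  by_contra hxy
  have h1 := NIL_pow n w h _ x y hxy
  have h2 : w x ≤ Finset.univ.sup w := Finset.le_sup (Finset.mem_univ x)
  omega

end Cfsg.Agent.Lib.Helper45.UC
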