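import Cfsg.Agent.Lib.Helper45.UC.Base
import Cfsg.Agent.Lib.Helper45.UC.NIL
import Cfsg.Agent.Lib.Helper45.UC.U2b

set_option autoImplicit false

namespace Cfsg.Agent.Lib.Helper45.UC

open Matrix

variable {t : ℕ} {d : Fin t → ℕ} {F : Type*} [Field F]

/-- U7 -/
theorem isNilpotent_of_topG_eq_zero (hd : ∀ k, 1 ≤ d k) {g : Matrix (Ix d) (Ix d) F}
    (hg : Comm d g) (h0 : ∀ i, topG d hd g i = 0) : IsNilpotent g := by
  set D := Finset.univ.sup d with hD
  apply isNilpotent_of_weight g (fun x => (x.2 : ℕ) * (D + 1) + (D - d x.1))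
  rintro ⟨l, b⟩ ⟨k, s⟩ hxy
  have hl : d l ≤ D := Finset.le_sup (Finset.mem_univ l)
  have hk : d k ≤ D := Finset.le_sup (Finset.mem_univ k)
  rw [comm_shift hg hd] at hxy
  show (s : ℕ) * (D + 1) + (D - d k) < (b : ℕ) * (D + 1) + (D - d l)
  by_cases hsb : (s : ℕ) ≤ (b : ℕ)
  · rw [dif_pos hsb] at hxy
    have h2 : ¬ ((b : ℕ) - (s : ℕ) + d k < d l) := fun h => hxy (comm_zero hg hd _ k h)
    rcases hsb.eq_or_lt with heq | hlt
    · have hle : d l ≤ d k := by omega
      rcases hle.eq_or_lt with he | hlt'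
      · exfalso
        apply hxy
        have h3 := congrFun (congrFun (h0 (d l)) ⟨l, rfl⟩) ⟨k, he.symm⟩
        have e : (⟨(b : ℕ) - (s : ℕ), lt_of_le_of_lt (Nat.sub_le _ _) b.2⟩ : Fin (d l)) = ⟨0, hd l⟩ :=
          Fin.ext (by simp only; omega)
        simp only at e ⊢
        rw [e]
        exact h3
      · rw [heq]; omega
    · have h4 := Nat.mul_le_mul_right (D + 1) (Nat.succ_le_of_lt hlt)
      rw [Nat.succ_mul] at h4
      omega
  · rw [dif_neg hsb] at hxy
    exact absurd rfl hxy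

end Cfsg.Agent.Lib.Helper45.UC
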