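import Cfsg.Agent.Lib.Helper45.UC.Base
import Cfsg.Agent.Lib.Helper45.UC.U7
import Cfsg.Agent.Lib.Helper45.UC.U5

set_option autoImplicit false

namespace Cfsg.Agent.Lib.Helper45.UC

open Matrix

variable {t : ℕ} {d : Fin t → ℕ} {F : Type*} [Field F]

/-- U7' -/
theorem isUnit_of_topG_eq_one (hd : ∀ k, 1 ≤ d k) {g : Matrix (Ix d) (Ix d) F}
    (hg : Comm d g) (h1 : ∀ i, topG d hd g i = 1) : IsUnit g := by
  have hc : Comm d (g - 1) := by
    unfold Comm at hg ⊢
    rw [sub_mul, mul_sub, hg, one_mul, mul_one]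
  have h0 : ∀ i, topG d hd (g - 1) i = 0 := by
    intro i
    have e : topG d hd (g - 1) i = topG d hd g i - topG d hd (1 : Matrix (Ix d) (Ix d) F) i := rfl
    rw [e, h1, topG_one, sub_self]
  have hn := isNilpotent_of_topG_eq_zero hd hc h0
  have := hn.isUnit_one_add
  rwa [add_sub_cancel] at this

end Cfsg.Agent.Lib.Helper45.UC
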