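import Cfsg.Agent.Lib.Helper45.UC.Base
import Cfsg.Agent.Lib.Helper45.UC.U4
import Cfsg.Agent.Lib.Helper45.UC.U5
import Cfsg.Agent.Lib.Helper45.UC.U6
import Cfsg.Agent.Lib.Helper45.UC.U1
import Cfsg.Agent.Lib.Helper45.UC.U7p

set_option autoImplicit false

namespace Cfsg.Agent.Lib.Helper45.UC

open Matrix

variable {t : ℕ} {d : Fin t → ℕ} {F : Type*} [Field F]

/-- U8 -/
theorem isUnit_iff (hd : ∀ k, 1 ≤ d k) {g : Matrix (Ix d) (Ix d) F} (hg : Comm d g) :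
    IsUnit g ↔ ∀ i, IsUnit (topG d hd g i) := by
  constructor
  · rintro ⟨u, rfl⟩ i
    have hc' : Comm d (↑u⁻¹ : Matrix (Ix d) (Ix d) F) := by
      unfold Comm at hg ⊢
      calc (↑u⁻¹ : Matrix (Ix d) (Ix d) F) * Cfsg.jordanTypeMatrix d F
          = ↑u⁻¹ * Cfsg.jordanTypeMatrix d F * (↑u * ↑u⁻¹) := by rw [Units.mul_inv, mul_one]
        _ = ↑u⁻¹ * (Cfsg.jordanTypeMatrix d F * ↑u) * ↑u⁻¹ := by simp only [mul_assoc]
        _ = ↑u⁻¹ * (↑u * Cfsg.jordanTypeMatrix d F) * ↑u⁻¹ := by rw [hg]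
        _ = Cfsg.jordanTypeMatrix d F * ↑u⁻¹ := by rw [← mul_assoc, Units.inv_mul, one_mul]
    refine ⟨⟨topG d hd ↑u i, topG d hd ↑u⁻¹ i, ?_, ?_⟩, rfl⟩
    · rw [← topG_mul hd hg hc', Units.mul_inv, topG_one]
    · rw [← topG_mul hd hc' hg, Units.inv_mul, topG_one]
  · intro h
    obtain ⟨p, hp⟩ := exists_section hd
      (fun i => (((h i).unit⁻¹ : (Matrix (Blk d i) (Blk d i) F)ˣ) : Matrix (Blk d i) (Blk d i) F))
    have hc := toMat_comm (d := d) p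
    have hgh : Comm d (g * toMat d p) := by
      unfold Comm at hg hc ⊢
      rw [mul_assoc, hc, ← mul_assoc, hg, mul_assoc]
    have h1 : IsUnit (g * toMat d p) := isUnit_of_topG_eq_one hd hgh (fun i => by
      rw [topG_mul hd hg hc, hp]
      exact (h i).mul_val_inv)
    rw [Matrix.isUnit_iff_isUnit_det] at h1 ⊢
    rw [Matrix.det_mul] at h1
    exact isUnit_of_mul_isUnit_left h1

end Cfsg.Agent.Lib.Helper45.UC
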