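import Cfsg.Agent.Lib.Helper45.UC.Base
import Cfsg.Agent.Lib.Helper45.UC.U1
import Cfsg.Agent.Lib.Helper45.UC.U2
import Cfsg.Agent.Lib.Helper45.UC.U3
import Cfsg.Agent.Lib.Helper45.UC.U8

set_option autoImplicit false

namespace Cfsg.Agent.Lib.Helper45.UC

open Matrix

variable {t : ℕ} {d : Fin t → ℕ} {F : Type*} [Field F]

/-- U9 -/
theorem card_centralizer_eq (hd : ∀ k, 1 ≤ d k) :
    Nat.card {g : GL (Ix d) F // (g : Matrix (Ix d) (Ix d) F) * Cfsg.jordanTypeMatrix d F =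
      Cfsg.jordanTypeMatrix d F * (g : Matrix (Ix d) (Ix d) F)} =
    Nat.card {p : PI d → F // ∀ i, IsUnit (topG d hd (toMat d p) i)} := by
  symm
  apply Nat.card_congr
  refine Equiv.ofBijective (fun p => ⟨((isUnit_iff hd (toMat_comm p.1)).2 p.2).unit, ?_⟩) ⟨?_, ?_⟩
  · exact toMat_comm p.1
  · intro p1 p2 h
    apply Subtype.ext
    apply toMat_injective hd
    have h1 := congrArg (fun g => ((g.1 : GL (Ix d) F) : Matrix (Ix d) (Ix d) F)) h
    exact h1
  · intro g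
    obtain ⟨p, hp⟩ := exists_param hd (g := (g.1 : Matrix (Ix d) (Ix d) F)) g.2
    refine ⟨⟨p, ?_⟩, ?_⟩
    · rw [← isUnit_iff hd (toMat_comm p), hp]
      exact g.1.isUnit
    · apply Subtype.ext
      apply Units.ext
      exact hp

end Cfsg.Agent.Lib.Helper45.UC
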