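import Cfsg.Agent.Lib.Helper45.UC.Base
import Cfsg.Agent.Lib.Helper45.UC.U9
import Cfsg.Agent.Lib.Helper45.UC.K1
import Cfsg.Agent.Lib.Helper45.UC.K2
import Cfsg.Agent.Lib.Helper45.UC.K3
import Cfsg.Agent.Lib.Helper45.UC.K4
import Cfsg.Agent.Lib.Helper45.UC.K5
import Cfsg.Agent.Lib.Helper45.UC.K6
import Cfsg.Agent.Lib.Helper45.UC.K7

set_option autoImplicit false

namespace Cfsg.Agent.Lib.Helper45.UC

open Matrix

variable {t : ℕ} {d : Fin t → ℕ} {F : Type*} [Field F]

/-- ASM -/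
theorem card_main [Fintype F] (hd : ∀ k, 1 ≤ d k) :
    Nat.card {g : GL (Ix d) F // (g : Matrix (Ix d) (Ix d) F) * Cfsg.jordanTypeMatrix d F =
      Cfsg.jordanTypeMatrix d F * (g : Matrix (Ix d) (Ix d) F)} =
    Fintype.card F ^ (2 * (∑ i ∈ Finset.range (Finset.univ.sup d + 1),
      ∑ j ∈ Finset.range (Finset.univ.sup d + 1),
      if i < j then i * cnt d i * cnt d j else 0) +
      ∑ i ∈ Finset.range (Finset.univ.sup d + 1), (i - 1) * cnt d i ^ 2) *
    ∏ i ∈ Finset.range (Finset.univ.sup d + 1), ∏ j : Fin (cnt d i),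
      (Fintype.card F ^ cnt d i - Fintype.card F ^ (j : ℕ)) := by
  rw [card_centralizer_eq hd]
  have h1 : Nat.card {p : PI d → F // ∀ i, IsUnit (topG d hd (toMat d p) i)} =
      Nat.card {p : PI d → F // topHom d hd F p ∈ {X | ∀ i, IsUnit (X i)}} :=
    Nat.card_congr (Equiv.subtypeEquivRight fun p => forall_isUnit_iff hd p)
  rw [h1]
  have h2 := card_preimage_of_surjective (topHom d hd F) (topHom_surjective hd)
    {X | ∀ i, IsUnit (X i)}
  have h3 : Nat.card ({X | ∀ i, IsUnit (X i)} :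
      Set ((i : Fin (Finset.univ.sup d + 1)) → Matrix (Blk d i) (Blk d i) F)) = _ :=
    card_units_tuple (d := d) (F := F)
  rw [h3, card_target, card_param, sum_min_eq hd, pow_add] at h2
  have hpos : 0 < Fintype.card F ^ (∑ i ∈ Finset.range (Finset.univ.sup d + 1), cnt d i ^ 2) :=
    pow_pos Fintype.card_pos _
  apply Nat.eq_of_mul_eq_mul_right hpos
  rw [h2]
  ring

end Cfsg.Agent.Lib.Helper45.UC
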