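import Cfsg.Statements.S2581

/-! S2581: order of the centraliser in `GL` of a unipotent matrix of given Jordan type; definitions. -/

set_option autoImplicit false

namespace Cfsg.Agent.Lib.Helper45.UC

/-- index type of the matrices -/
abbrev Ix {t : ℕ} (d : Fin t → ℕ) := (k : Fin t) × Fin (d k)

/-- index type of the parameters of the centraliser algebra -/
abbrev PI {t : ℕ} (d : Fin t → ℕ) := (l : Fin t) × (k : Fin t) × Fin (min (d l) (d k))

/-- blocks of size `i` -/
abbrev Blk {t : ℕ} (d : Fin t → ℕ) (i : ℕ) := {k : Fin t // d k = i}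

/-- the matrix commuting with the Jordan matrix attached to a parameter: the entry in row `(l,b)`,
column `(k,s)` is `p l k (b - s - (d l - d k))` if `s + (d l - d k) ≤ b` and `0` otherwise. -/
def toMat {t : ℕ} (d : Fin t → ℕ) {F : Type*} [Field F] (p : PI d → F) :
    Matrix (Ix d) (Ix d) F := fun x y =>
  if h : (y.2 : ℕ) + (d x.1 - d y.1) ≤ (x.2 : ℕ) then
    p ⟨x.1, y.1, ⟨(x.2 : ℕ) - (y.2 : ℕ) - (d x.1 - d y.1), by
      have := x.2.2
      have := y.2.2
      omega⟩⟩
  else 0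

/-- the `a_i × a_i` matrix of top coefficients between blocks of size `i` -/
def topG {t : ℕ} (d : Fin t → ℕ) (hd : ∀ k, 1 ≤ d k) {F : Type*} [Field F]
    (g : Matrix (Ix d) (Ix d) F) (i : ℕ) : Matrix (Blk d i) (Blk d i) F :=
  fun l k => g ⟨l.1, ⟨0, hd l.1⟩⟩ ⟨k.1, ⟨0, hd k.1⟩⟩

/-- commuting with the Jordan matrix -/
def Comm {t : ℕ} (d : Fin t → ℕ) {F : Type*} [Field F] (g : Matrix (Ix d) (Ix d) F) : Prop :=
  g * Cfsg.jordanTypeMatrix d F = Cfsg.jordanTypeMatrix d F * g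

/-- number of blocks of size `i` -/
abbrev cnt {t : ℕ} (d : Fin t → ℕ) (i : ℕ) : ℕ := (Finset.univ.filter (fun k : Fin t => d k = i)).card

/-- the additive hom "top coefficients" -/
def topHom {t : ℕ} (d : Fin t → ℕ) (hd : ∀ k, 1 ≤ d k) (F : Type*) [Field F] :
    (PI d → F) →+ ((i : Fin (Finset.univ.sup d + 1)) → Matrix (Blk d i) (Blk d i) F) where
  toFun p _ l k := p ⟨l.1, k.1, ⟨0, lt_min (hd l.1) (hd k.1)⟩⟩
  map_zero' := rfl
  map_add' _ _ := rfl

end Cfsg.Agent.Lib.Helper45.UC
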